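import Cfsg.Agent.Lib.Helper13.SecSmallAction
import Cfsg.Agent.Lib.Helper13.Tate

set_option autoImplicit false

open scoped commutatorElement

namespace Cfsg.Agent.Lib.Helper13

universe u

/-- the identity functor -/
def topF : ∀ (Q : Type u) [Group Q], Subgroup Q := fun _ _ => ⊤

theorem topF_isChar (p : ℕ) : Cfsg.IsCharPFunctor.{u} p topF := by
  refine ⟨fun Q _ _ _ hn => ?_, fun Q R _ _ _ _ φ => ?_⟩
  · exact (Subgroup.nontrivial_iff.mpr hn).exists_pair_ne |> fun _ => top_ne_bot
  · show (⊤ : Subgroup Q).map φ.toMonoidHom = ⊤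
    rw [← MonoidHom.range_eq_map]
    exact MonoidHom.range_eq_top.mpr φ.surjective

theorem induced_topF {Z : Type u} [Group Z] (T : Subgroup Z) :
    Cfsg.inducedFunctor (G := Z) topF T = T := by
  show (⊤ : Subgroup T).map T.subtype = T
  rw [← MonoidHom.range_eq_map, Subgroup.range_subtype]

theorem iter_le_lcs {Z : Type*} [Group Z] {U T D : Subgroup Z} (hU : U ≤ T) (hD : D ≤ T) (k : ℕ) :
    Cfsg.iterCommutator U D k ≤ T.lowerCentralSeries k := by
  induction k with
  | zero => exact hU
  | succ k ih => exact Subgroup.commutator_mono ih hD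

variable {p : ℕ} [hp : Fact p.Prime]

/-- the Sylow subgroups of the sections inherit the bound on the class -/
theorem lcs_eq_bot_of_sec {G : Type u} [Group G] [Finite G] (P : Sylow p G) {n : ℕ}
    (hcl : (P : Subgroup G).lowerCentralSeries n = ⊥) {Z : Type u} [Group Z] (hZ : Sec G Z)
    (T : Subgroup Z) (hT : IsPGroup p T) : T.lowerCentralSeries n = ⊥ := by
  obtain ⟨K, f, hf⟩ := hZ
  have : Finite Z := Finite.of_surjective f hf
  -- a `p`-subgroup of `K` mapping onto `T`
  obtain ⟨S₁⟩ : Nonempty (Sylow p (T.comap f)) := inferInstance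
  set S₂ : Subgroup K := (S₁ : Subgroup (T.comap f)).map (T.comap f).subtype with hS₂
  have hS₂p : IsPGroup p S₂ := S₁.2.map _
  have hle : S₂.map f ≤ T := by
    rintro _ ⟨_, ⟨y, _, rfl⟩, rfl⟩
    exact y.2
  have hmap : S₂.map f = T := by
    -- compare indices
    let f' : (T.comap f) →* T := f.subgroupComap T
    have hf' : Function.Surjective f' := f.subgroupComap_surjective_of_surjective T hf
    have h1 : ((S₁ : Subgroup (T.comap f)).map f').index ∣ (S₁ : Subgroup (T.comap f)).index :=
      Subgroup.index_map_dvd _ hf'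
    have h2 : ((S₁ : Subgroup (T.comap f)).map f') = ⊤ := by
      rw [← Subgroup.index_eq_one]
      obtain ⟨j, hj⟩ := (IsPGroup.iff_card.mp hT)
      have h3 : ((S₁ : Subgroup (T.comap f)).map f').index ∣ p ^ j := by
        rw [← hj]; exact Subgroup.index_dvd_card _
      obtain ⟨i, _, hi⟩ := (Nat.dvd_prime_pow hp.out).mp h3
      rcases Nat.eq_zero_or_pos i with rfl | hpos
      · simpa using hi
      · exfalso
        apply S₁.not_dvd_index
        refine dvd_trans ?_ h1
        rw [hi]; exact dvd_pow_self p hpos.ne'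
    apply le_antisymm hle
    intro t ht
    have h3 : (⟨t, ht⟩ : T) ∈ (S₁ : Subgroup (T.comap f)).map f' := by rw [h2]; trivial
    obtain ⟨y, hy, e⟩ := h3
    exact ⟨y, ⟨y, hy, rfl⟩, congrArg Subtype.val e⟩
  have hS₃p : IsPGroup p (S₂.map K.subtype) := hS₂p.map _
  obtain ⟨P', hP'⟩ := hS₃p.exists_le_sylow
  obtain ⟨g, hg⟩ := MulAction.exists_smul_eq G P P'
  have h4 : (P' : Subgroup G).lowerCentralSeries n = ⊥ := by
    have : ((g • P : Sylow p G) : Subgroup G) = (P : Subgroup G).map (MulAut.conj g).toMonoidHom := rfl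
    rw [← hg, this, ← Subgroup.map_lowerCentralSeries, hcl, Subgroup.map_bot]
  have h5 : (S₂.map K.subtype).lowerCentralSeries n = ⊥ := by
    rw [eq_bot_iff, ← h4]; exact Subgroup.lowerCentralSeries_mono n hP'
  rw [← Subgroup.map_lowerCentralSeries, Subgroup.map_eq_bot_iff_of_injective _ K.subtype_injective]
    at h5
  rw [← hmap, ← Subgroup.map_lowerCentralSeries, h5, Subgroup.map_bot]

theorem FT_topF_of_class {G : Type u} [Group G] [Finite G] (P : Sylow p G)
    (hcl : (P : Subgroup G).lowerCentralSeries (p - 1) = ⊥) : FT p {topF} G := by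
  refine FT_of_sections (by rintro _ rfl; exact topF_isChar p) (fun Z _ hZ hC hI => ?_) G
    (Sec.refl G)
  have := hZ.finite
  refine FT_of_SHyp (topF_isChar p) hI ?_
  intro T hT hTi hnn
  rw [induced_topF] at hnn
  have hle : Cfsg.pCore p Z ≤ T := Cfsg.Agent.Lib.Helper17.pCore_le_sylow (hT.toSylow hTi)
  obtain ⟨g, hgT, hgP⟩ : ∃ g ∈ T, g ∉ Cfsg.pCore p Z := by
    by_contra hcon
    push Not at hcon
    have : T = Cfsg.pCore p Z := le_antisymm hcon hle
    apply hnn
    rw [this]
    infer_instance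
  refine ⟨g, hgT, hgP, fun U V _ hU => ?_⟩
  have h1 := iter_le_lcs (hU.trans hle) (Subgroup.zpowers_le.mpr hgT) (p - 1)
  rw [lcs_eq_bot_of_sec P hcl hZ T hT] at h1
  exact h1.trans bot_le

/-- Hall–Wielandt for Sylow subgroups of class less than `p` -/
theorem inf_commutator_le_of_class {G : Type u} [Group G] [Finite G] (P : Sylow p G)
    (hcl : (P : Subgroup G).lowerCentralSeries (p - 1) = ⊥) :
    (P : Subgroup G) ⊓ commutator G ≤ ⁅Subgroup.normalizer ((P : Subgroup G) : Set G),
      Subgroup.normalizer ((P : Subgroup G) : Set G)⁆ := by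
  have hFT := FT_topF_of_class P hcl
  have h1 := FTS_of_familyTransfer
    (ind_isConjugacyFunctor (X := G) (by rintro _ rfl; exact topF_isChar p)) hFT le_top P.2
    (not_dvd_relIndex_top P)
  have e : ind {topF} G = {Cfsg.inducedFunctor (G := G) topF} := by
    unfold ind; rw [Set.image_singleton]
  unfold FTS TKer at h1
  rw [e, iSup_singleton, top_inf_eq, induced_topF] at h1
  rw [commutator_def]
  exact h1.trans inf_le_right

end Cfsg.Agent.Lib.Helper13
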