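import Cfsg.Agent.Lib.Helper13.NormSum
import Cfsg.Agent.Lib.Helper10.Fitting

set_option autoImplicit false

namespace Cfsg.Agent.Lib.Helper13.HW

/-- a product over a set on which `z` acts with all orbits of length `p` -/
theorem prod_eq_one_of_strings {X Ω A : Type*} [Group X] [MulAction X Ω] [CommGroup A]
    {p : ℕ} [hp : Fact p.Prime] (z : X) (s : Finset Ω) (f : Ω → A)
    (hs : ∀ c ∈ s, z • c ∈ s) (hpw : ∀ c ∈ s, z ^ p • c = c) (hne : ∀ c ∈ s, z • c ≠ c)
    (hN : ∀ c ∈ s, ∏ i ∈ Finset.range p, f (z ^ i • c) = 1) : ∏ c ∈ s, f c = 1 := by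
  classical
  apply Finset.prod_cancels_of_partition_cancels (MulAction.orbitRel (Subgroup.zpowers z) Ω)
  intro x hx
  have hsi : ∀ i : ℕ, z ^ i • x ∈ s := by
    intro i
    induction i with
    | zero => simpa using hx
    | succ i ih => rw [pow_succ', mul_smul]; exact hs _ ih
  have hstab : z ^ p ∈ MulAction.stabilizer X x := MulAction.mem_stabilizer_iff.mpr (hpw x hx)
  have hset : s.filter (fun a => (MulAction.orbitRel (Subgroup.zpowers z) Ω) a x) =
      (Finset.range p).image (fun i => z ^ i • x) := by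
    ext a
    simp only [Finset.mem_filter, Finset.mem_image, Finset.mem_range, MulAction.orbitRel_apply,
      MulAction.mem_orbit_iff]
    constructor
    · rintro ⟨-, ⟨g, hg⟩, rfl⟩
      obtain ⟨k, rfl⟩ := Subgroup.mem_zpowers_iff.mp hg
      refine ⟨(k % p).toNat, ?_, ?_⟩
      · have h1 : 0 ≤ k % (p : ℤ) := Int.emod_nonneg _ (by exact_mod_cast hp.out.ne_zero)
        have h2 : k % (p : ℤ) < p := Int.emod_lt_of_pos _ (by exact_mod_cast hp.out.pos)
        omega
      · have h1 : 0 ≤ k % (p : ℤ) := Int.emod_nonneg _ (by exact_mod_cast hp.out.ne_zero)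
        have h2 : z ^ (k % (p : ℤ)).toNat = z ^ (k % (p : ℤ)) := by
          rw [← zpow_natCast, Int.toNat_of_nonneg h1]
        have h3 : z ^ k = z ^ (k % (p : ℤ)) * (z ^ p) ^ (k / (p : ℤ)) := by
          rw [← zpow_natCast z p, ← zpow_mul, ← zpow_add]
          congr 1
          exact (Int.emod_add_mul_ediv k p).symm
        have h4 : ((z ^ p) ^ (k / (p : ℤ))) • x = x :=
          MulAction.mem_stabilizer_iff.mp (Subgroup.zpow_mem _ hstab _)
        show z ^ (k % (p : ℤ)).toNat • x = (z ^ k) • x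
        rw [h2, h3, mul_smul, h4]
    · rintro ⟨i, -, rfl⟩
      exact ⟨hsi i, ⟨⟨z ^ i, Subgroup.pow_mem _ (Subgroup.mem_zpowers z) i⟩, rfl⟩⟩
  rw [hset, Finset.prod_image]
  · exact hN x hx
  · -- injectivity
    have key : ∀ i j : ℕ, i < j → j < p → z ^ i • x = z ^ j • x → False := by
      intro i j hij hj h
      have h1 : z ^ (j - i) ∈ MulAction.stabilizer X x := by
        rw [MulAction.mem_stabilizer_iff]
        have e : z ^ j = z ^ i * z ^ (j - i) := by rw [← pow_add]; congr 1; omega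
        rw [e, mul_smul] at h
        exact (smul_left_cancel _ h).symm
      have hc : Nat.Coprime (j - i) p :=
        Nat.Coprime.symm ((Nat.Prime.coprime_iff_not_dvd hp.out).mpr
          (fun hd => by have := Nat.le_of_dvd (by omega) hd; omega))
      have h2 : z ∈ MulAction.stabilizer X x := by
        have h3 := Nat.gcd_eq_gcd_ab (j - i) p
        rw [hc.gcd_eq_one] at h3
        have h4 : z = (z ^ (j - i)) ^ (Nat.gcdA (j - i) p) * (z ^ p) ^ (Nat.gcdB (j - i) p) := by
          rw [← zpow_natCast z (j - i), ← zpow_natCast z p, ← zpow_mul, ← zpow_mul, ← zpow_add,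
            ← h3]
          simp
        rw [h4]
        exact Subgroup.mul_mem _ (Subgroup.zpow_mem _ h1 _) (Subgroup.zpow_mem _ hstab _)
      exact hne x hx (MulAction.mem_stabilizer_iff.mp h2)
    intro i hi j hj h
    simp only [Finset.coe_range, Set.mem_Iio] at hi hj
    rcases lt_trichotomy i j with hlt | heq | hgt
    · exact (key i j hlt hj h).elim
    · exact heq
    · exact (key j i hgt hi h.symm).elim

/-- a central step in a normal series of a `p`-group -/
theorem exists_central_step {G : Type*} [Group G] [Finite G] {p : ℕ} [hp : Fact p.Prime]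
    {P Q D : Subgroup G} (hP : IsPGroup p P) (hQP : Q ≤ P)
    (hQn : P ≤ Subgroup.normalizer (Q : Set G)) (hDn : P ≤ Subgroup.normalizer (D : Set G))
    (hlt : D < Q) :
    ∃ z ∈ Q, z ∉ D ∧ z ^ p ∈ D ∧ ∀ x ∈ P, x⁻¹ * z⁻¹ * x * z ∈ D := by
  classical
  have hDP : D ≤ P := hlt.le.trans hQP
  have hDnorm : (D.subgroupOf P).Normal := (Subgroup.normal_subgroupOf_iff_le_normalizer hDP).mpr hDn
  have hQnorm : (Q.subgroupOf P).Normal := (Subgroup.normal_subgroupOf_iff_le_normalizer hQP).mpr hQn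
  have hPq : IsPGroup p (P ⧸ D.subgroupOf P) := hP.to_quotient _
  have : Group.IsNilpotent (P ⧸ D.subgroupOf P) := hPq.isNilpotent
  set π := QuotientGroup.mk' (D.subgroupOf P) with hπ
  have hQbn : ((Q.subgroupOf P).map π).Normal :=
    Subgroup.Normal.map hQnorm π (QuotientGroup.mk'_surjective _)
  have hQb : (Q.subgroupOf P).map π ≠ ⊥ := by
    intro h
    obtain ⟨x, hxQ, hxD⟩ := SetLike.exists_of_lt hlt
    have h1 : π ⟨x, hQP hxQ⟩ ∈ (Q.subgroupOf P).map π :=
      ⟨_, Subgroup.mem_subgroupOf.mpr hxQ, rfl⟩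
    rw [h, Subgroup.mem_bot] at h1
    exact hxD (Subgroup.mem_subgroupOf.mp ((QuotientGroup.eq_one_iff _).mp h1))
  have h1 := Cfsg.Agent.Lib.Helper10.normal_inf_center_ne_bot _ hQbn hQb
  obtain ⟨w, hw, hw1⟩ : ∃ w : P ⧸ D.subgroupOf P,
      w ∈ (Q.subgroupOf P).map π ⊓ Subgroup.center _ ∧ w ≠ 1 := by
    obtain ⟨w, hw⟩ := Subgroup.ne_bot_iff_exists_ne_one.mp h1
    exact ⟨w, w.2, fun h => hw (Subtype.ext h)⟩
  obtain ⟨k, hk⟩ := (IsPGroup.iff_orderOf.mp hPq) w
  have hk0 : k ≠ 0 := by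
    rintro rfl
    rw [pow_zero, orderOf_eq_one_iff] at hk
    exact hw1 hk
  set w' := w ^ p ^ (k - 1) with hw'
  have hw'mem : w' ∈ (Q.subgroupOf P).map π ⊓ Subgroup.center _ := Subgroup.pow_mem _ hw _
  have hw'1 : w' ≠ 1 := by
    apply pow_ne_one_of_lt_orderOf (pow_pos hp.out.pos _).ne'
    rw [hk]
    exact Nat.pow_lt_pow_right hp.out.one_lt (by omega)
  have hw'p : w' ^ p = 1 := by
    rw [hw', ← pow_mul, ← pow_succ, Nat.sub_add_cancel (by omega), ← hk, pow_orderOf_eq_one]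
  obtain ⟨⟨y, hyQ, hy⟩, hcen⟩ := Subgroup.mem_inf.mp hw'mem
  refine ⟨(y : G), Subgroup.mem_subgroupOf.mp hyQ, ?_, ?_, ?_⟩
  · intro h
    apply hw'1
    rw [← hy]
    exact (QuotientGroup.eq_one_iff _).mpr (Subgroup.mem_subgroupOf.mpr h)
  · have h2 : π (y ^ p) = 1 := by rw [map_pow, hy, hw'p]
    have h3 := Subgroup.mem_subgroupOf.mp ((QuotientGroup.eq_one_iff _).mp h2)
    simpa using h3
  · intro x hx
    have h2 : π ((⟨x, hx⟩ : P)⁻¹ * y⁻¹ * ⟨x, hx⟩ * y) = 1 := by
      rw [map_mul, map_mul, map_mul, map_inv, map_inv, hy]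
      have h3 := Subgroup.mem_center_iff.mp hcen (π ⟨x, hx⟩)
      rw [mul_assoc, mul_assoc, h3, ← mul_assoc w'⁻¹, inv_mul_cancel, one_mul, inv_mul_cancel]
    have h3 := Subgroup.mem_subgroupOf.mp ((QuotientGroup.eq_one_iff _).mp h2)
    simpa using h3

end Cfsg.Agent.Lib.Helper13.HW
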