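import Cfsg.Agent.Lib.Helper13.HWa
import Cfsg.Agent.Lib.Helper13.Tate
import Cfsg.Agent.Lib.Helper13.SecTransferMin

set_option autoImplicit false

namespace Cfsg.Agent.Lib.Helper13.HW

open Cfsg Cfsg.Agent.Lib.Helper17 Cfsg.Agent.Lib.Helper13

variable {G : Type*} [Group G] {H : Subgroup G} {A : Type*} [CommGroup A]

open Classical in
/-- the contribution of the coset `c` to the transfer of `w` (trivial unless `w` fixes `c`) -/
noncomputable def Fw (ϕ : H →* A) (c : G ⧸ H) (w : G) : A :=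
  if h : c.out⁻¹ * w * c.out ∈ H then ϕ ⟨_, h⟩ else 1

theorem conj_mem_iff_smul (t w : G) : t⁻¹ * w * t ∈ H ↔ w • (t : G ⧸ H) = (t : G ⧸ H) := by
  have e : w • (t : G ⧸ H) = ((w * t : G) : G ⧸ H) := rfl
  rw [e, eq_comm, QuotientGroup.eq, mul_assoc]

theorem out_mem_iff_smul (c : G ⧸ H) (w : G) : c.out⁻¹ * w * c.out ∈ H ↔ w • c = c := by
  rw [conj_mem_iff_smul, QuotientGroup.out_eq']

theorem Fw_of_not (ϕ : H →* A) {c : G ⧸ H} {w : G} (h : w • c ≠ c) : Fw ϕ c w = 1 := by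
  unfold Fw
  rw [dif_neg]
  rwa [out_mem_iff_smul]

theorem Fw_mk (ϕ : H →* A) (t w : G) (h : t⁻¹ * w * t ∈ H) :
    Fw ϕ (t : G ⧸ H) w = ϕ ⟨_, h⟩ := by
  have h1 : w • (t : G ⧸ H) = (t : G ⧸ H) := (conj_mem_iff_smul t w).mp h
  unfold Fw
  rw [dif_pos ((out_mem_iff_smul _ _).mpr h1)]
  obtain ⟨h₀, hh⟩ := QuotientGroup.mk_out_eq_mul H t
  have e : (⟨((t : G ⧸ H).out)⁻¹ * w * (t : G ⧸ H).out, (out_mem_iff_smul _ _).mpr h1⟩ : H) =
      h₀⁻¹ * ⟨_, h⟩ * h₀ := by
    apply Subtype.ext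
    simp [hh, mul_assoc]
  rw [e, map_mul, map_mul, map_inv, mul_comm, mul_inv_cancel_left]

theorem Fw_smul (ϕ : H →* A) (g : G) (c : G ⧸ H) (w : G) :
    Fw ϕ (g • c) w = Fw ϕ c (g⁻¹ * w * g) := by
  obtain ⟨t, rfl⟩ := QuotientGroup.mk_surjective c
  have e : g • ((t : G) : G ⧸ H) = ((g * t : G) : G ⧸ H) := rfl
  show Fw ϕ (g • ((t : G) : G ⧸ H)) w = Fw ϕ ((t : G) : G ⧸ H) (g⁻¹ * w * g)
  rw [e]
  by_cases h : (g * t)⁻¹ * w * (g * t) ∈ H
  · have h' : t⁻¹ * (g⁻¹ * w * g) * t ∈ H := by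
      convert h using 1
      group
    rw [Fw_mk ϕ _ _ h, Fw_mk ϕ _ _ h']
    congr 1
    apply Subtype.ext
    show (g * t)⁻¹ * w * (g * t) = t⁻¹ * (g⁻¹ * w * g) * t
    group
  · have h' : ¬ t⁻¹ * (g⁻¹ * w * g) * t ∈ H := by
      intro h2
      apply h
      convert h2 using 1
      group
    rw [Fw_of_not ϕ (fun h2 => h ((conj_mem_iff_smul _ _).mpr h2)),
      Fw_of_not ϕ (fun h2 => h' ((conj_mem_iff_smul _ _).mpr h2))]

theorem Fw_mul (ϕ : H →* A) {c : G ⧸ H} {a b : G} (ha : a • c = c) (hb : b • c = c) :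
    Fw ϕ c (a * b) = Fw ϕ c a * Fw ϕ c b := by
  have hab : (a * b) • c = c := by rw [mul_smul, hb, ha]
  unfold Fw
  rw [dif_pos ((out_mem_iff_smul _ _).mpr ha), dif_pos ((out_mem_iff_smul _ _).mpr hb),
    dif_pos ((out_mem_iff_smul _ _).mpr hab), ← map_mul]
  congr 1
  apply Subtype.ext
  simp [mul_assoc]

theorem Fw_one (ϕ : H →* A) (c : G ⧸ H) : Fw ϕ c 1 = 1 := by
  have h := Fw_mul ϕ (c := c) (a := 1) (b := 1) (one_smul _ _) (one_smul _ _)
  rw [mul_one] at h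
  exact (mul_eq_left.mp h.symm)

theorem Fw_inv (ϕ : H →* A) {c : G ⧸ H} {a : G} (ha : a • c = c) :
    Fw ϕ c a⁻¹ = (Fw ϕ c a)⁻¹ := by
  have ha' : a⁻¹ • c = c := by rw [inv_smul_eq_iff, ha]
  have h := Fw_mul ϕ ha' ha
  rw [inv_mul_cancel, Fw_one] at h
  exact eq_inv_of_mul_eq_one_left h.symm

/-- the product along a string `c, z c, …, z^(p-1) c` -/
theorem string_prod {p : ℕ} [hp : Fact p.Prime] (hA : ∀ a : A, a ^ p = 1) (ϕ : H →* A)
    (c : G ⧸ H) (P D : Subgroup G) (z u : G) (hzP : z ∈ P) (huP : u ∈ P)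
    (hE : ∀ w ∈ P, (fun y : G => y⁻¹ * z⁻¹ * y * z)^[p - 1] w = 1)
    (hDc : ∀ d ∈ D, d • c = c) (hzD : ∀ d ∈ D, z⁻¹ * d * z ∈ D)
    (huz : u⁻¹ * z⁻¹ * u * z ∈ D) :
    ∏ i ∈ Finset.range p, Fw ϕ c ((fun w => z⁻¹ * w * z)^[i] u) = 1 := by
  set act : G → G := fun w => z⁻¹ * w * z with hact
  have hmul : ∀ (i : ℕ) (a b : G), act^[i] (a * b) = act^[i] a * act^[i] b := by
    intro i
    induction i with
    | zero => intro a b; rfl
    | succ i ih =>
      intro a b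
      rw [Function.iterate_succ_apply', Function.iterate_succ_apply', Function.iterate_succ_apply',
        ih]
      simp [hact, mul_assoc]
  have hone : ∀ i : ℕ, act^[i] 1 = 1 := by
    intro i
    induction i with
    | zero => rfl
    | succ i ih => rw [Function.iterate_succ_apply', ih]; simp [hact]
  have hinv : ∀ (i : ℕ) (a : G), act^[i] a⁻¹ = (act^[i] a)⁻¹ := by
    intro i a
    have h := hmul i a⁻¹ a
    rw [inv_mul_cancel, hone] at h
    exact eq_inv_of_mul_eq_one_left h.symm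
  have key : ∀ i : ℕ, u⁻¹ * act^[i] u ∈ D := by
    intro i
    induction i with
    | zero => simp
    | succ i ih =>
      rw [Function.iterate_succ_apply']
      have e : u⁻¹ * act (act^[i] u) = (u⁻¹ * z⁻¹ * u * z) * (z⁻¹ * (u⁻¹ * act^[i] u) * z) := by
        simp [hact, mul_assoc]
      rw [e]
      exact D.mul_mem huz (hzD _ ih)
  by_cases hu : u • c = c
  · have hfixi : ∀ i : ℕ, (act^[i] u) • c = c := by
      intro i
      have e : act^[i] u = u * (u⁻¹ * act^[i] u) := by group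
      rw [e, mul_smul, hDc _ (key i), hu]
    let R₀ : Subgroup G :=
      { carrier := {w | w ∈ P ∧ ∀ i : ℕ, (act^[i] w) • c = c}
        mul_mem' := by
          rintro a b ⟨ha, ha'⟩ ⟨hb, hb'⟩
          exact ⟨P.mul_mem ha hb, fun i => by rw [hmul, mul_smul, hb', ha']⟩
        one_mem' := ⟨P.one_mem, fun i => by rw [hone, one_smul]⟩
        inv_mem' := by
          rintro a ⟨ha, ha'⟩
          exact ⟨P.inv_mem ha, fun i => by rw [hinv, inv_smul_eq_iff, ha']⟩ }
    have hR₀ : ∀ w : R₀, (w : G) • c = c := fun w => w.2.2 0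
    let φ : R₀ → R₀ := fun w => ⟨act w, P.mul_mem (P.mul_mem (P.inv_mem hzP) w.2.1) hzP,
      fun i => by
        have := w.2.2 (i + 1)
        rwa [Function.iterate_succ_apply] at this⟩
    let κ : R₀ → R₀ := fun w => w⁻¹ * φ w
    have hφi : ∀ (i : ℕ) (w : R₀), ((φ^[i] w : R₀) : G) = act^[i] (w : G) := by
      intro i
      induction i with
      | zero => intro w; rfl
      | succ i ih =>
        intro w
        rw [Function.iterate_succ_apply', Function.iterate_succ_apply', ← ih]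
    have hκi : ∀ (i : ℕ) (w : R₀),
        ((κ^[i] w : R₀) : G) = (fun y : G => y⁻¹ * z⁻¹ * y * z)^[i] (w : G) := by
      intro i
      induction i with
      | zero => intro w; rfl
      | succ i ih =>
        intro w
        rw [Function.iterate_succ_apply', Function.iterate_succ_apply', ← ih]
        show ((κ^[i] w : R₀) : G)⁻¹ * (z⁻¹ * ((κ^[i] w : R₀) : G) * z) = _
        simp [mul_assoc]
    have h0 := sum_iterate_eq_zero (B := Additive A) p φ κ
      (fun w => Additive.ofMul (Fw ϕ c (w : G)))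
      (by
        intro w
        apply Subtype.ext
        show (z⁻¹ * (w : G) * z)⁻¹ * (z⁻¹ * (z⁻¹ * (w : G) * z) * z) =
          z⁻¹ * ((w : G)⁻¹ * (z⁻¹ * (w : G) * z)) * z
        simp [mul_assoc])
      (by
        intro w
        rw [← ofMul_div]
        congr 1
        show Fw ϕ c ((φ w : R₀) : G) / Fw ϕ c (w : G) = Fw ϕ c ((w : G)⁻¹ * ((φ w : R₀) : G))
        rw [Fw_mul ϕ (by rw [inv_smul_eq_iff, hR₀ w]) (hR₀ (φ w)), Fw_inv ϕ (hR₀ w),
          div_eq_inv_mul])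
      (by
        intro w
        rw [← ofMul_pow, hA]
        rfl)
      (by
        intro w
        rw [hκi, hE _ w.2.1, Fw_one]
        rfl) ⟨u, huP, hfixi⟩
    rw [← ofMul_prod] at h0
    have h1 : ∏ i ∈ Finset.range p, Fw ϕ c (((φ^[i] ⟨u, huP, hfixi⟩ : R₀) : G)) = 1 := h0
    rw [← h1]
    exact Finset.prod_congr rfl (fun i _ => by rw [hφi])
  · apply Finset.prod_eq_one
    intro i _
    apply Fw_of_not
    intro h
    apply hu
    have e : act^[i] u = u * (u⁻¹ * act^[i] u) := by group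
    rw [e, mul_smul, hDc _ (key i)] at h
    exact h

end Cfsg.Agent.Lib.Helper13.HW
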