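import Cfsg.Agent.Lib.Helper13.HWb

set_option autoImplicit false

namespace Cfsg.Agent.Lib.Helper13.HW

open Cfsg Cfsg.Agent.Lib.Helper17 Cfsg.Agent.Lib.Helper13

variable {G : Type*} [Group G] [Finite G] {H : Subgroup G} {A : Type*} [CommGroup A]

/-- only the coset fixed by `Q` contributes -/
theorem prod_fixed_eq {p : ℕ} [hp : Fact p.Prime] [Fintype (G ⧸ H)] [DecidableEq (G ⧸ H)]
    (hA : ∀ a : A, a ^ p = 1) (ϕ : H →* A)
    (P Q : Subgroup G) (hP : IsPGroup p P) (hQP : Q ≤ P)
    (hQn : P ≤ Subgroup.normalizer (Q : Set G))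
    (hE : ∀ w ∈ P, ∀ z ∈ Q, (fun y : G => y⁻¹ * z⁻¹ * y * z)^[p - 1] w = 1)
    (hfix : ∀ c : G ⧸ H, (∀ g ∈ Q, g • c = c) ↔ c = ((1 : G) : G ⧸ H))
    (u : G) (huP : u ∈ P) (huH : u ∈ H) (D : Subgroup G) :
    D ≤ Q → P ≤ Subgroup.normalizer (D : Set G) →
      ∏ c : G ⧸ H, (open Classical in if ∀ d ∈ D, d • c = c then Fw ϕ c u else 1) = ϕ ⟨u, huH⟩ := by
  classical
  induction D using WellFoundedGT.induction with
  | ind D ih =>
    intro hDQ hDn
    rcases eq_or_lt_of_le hDQ with heq | hlt
    · subst heq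
      rw [Finset.prod_eq_single ((1 : G) : G ⧸ H)]
      · rw [if_pos ((hfix _).mpr rfl), Fw_mk ϕ 1 u (by simpa using huH)]
        congr 1
        apply Subtype.ext
        simp
      · intro c _ hc
        rw [if_neg (fun h => hc ((hfix c).mp h))]
      · intro h
        exact absurd (Finset.mem_univ _) h
    · obtain ⟨z, hzQ, hzD, hzp, hzc⟩ := exists_central_step hP hQP hQn hDn hlt
      have hzP : z ∈ P := hQP hzQ
      have hD' : D < D ⊔ Subgroup.zpowers z :=
        lt_of_le_of_ne le_sup_left (fun h => hzD (by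
          rw [h]; exact (le_sup_right : Subgroup.zpowers z ≤ _) (Subgroup.mem_zpowers z)))
      have hD'Q : D ⊔ Subgroup.zpowers z ≤ Q := sup_le hDQ ((Subgroup.zpowers_le).mpr hzQ)
      have hD'n : P ≤ Subgroup.normalizer ((D ⊔ Subgroup.zpowers z : Subgroup G) : Set G) := by
        intro x hx
        rw [mem_normalizer_iff_cj]
        apply cj_eq_of_le_of_finite
        rw [cj_sup, cj_zpowers]
        refine sup_le ?_ ?_
        · rw [mem_normalizer_iff_cj.mp (hDn hx)]
          exact le_sup_left
        · rw [Subgroup.zpowers_le]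
          have e : x⁻¹ * z * x = z * (x⁻¹ * z⁻¹ * x * z)⁻¹ := by group
          rw [e]
          exact Subgroup.mul_mem _ ((le_sup_right : Subgroup.zpowers z ≤ _) (Subgroup.mem_zpowers z))
            ((le_sup_left : D ≤ _) (D.inv_mem (hzc x hx)))
      rw [← ih _ hD' hD'Q hD'n]
      have hiff : ∀ c : G ⧸ H, (∀ d ∈ D ⊔ Subgroup.zpowers z, d • c = c) ↔
          ((∀ d ∈ D, d • c = c) ∧ z • c = c) := by
        intro c
        constructor
        · intro h
          exact ⟨fun d hd => h d ((le_sup_left : D ≤ _) hd),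
            h z ((le_sup_right : Subgroup.zpowers z ≤ _) (Subgroup.mem_zpowers z))⟩
        · rintro ⟨h1, h2⟩ d hd
          have h3 : D ⊔ Subgroup.zpowers z ≤ MulAction.stabilizer G c :=
            sup_le (fun d hd => MulAction.mem_stabilizer_iff.mpr (h1 d hd))
              ((Subgroup.zpowers_le).mpr (MulAction.mem_stabilizer_iff.mpr h2))
          exact MulAction.mem_stabilizer_iff.mp (h3 hd)
      -- the strings
      have hzDn : ∀ d ∈ D, z⁻¹ * d * z ∈ D := by
        intro d hd
        have h1 := conj_mem_cj (g := z) hd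
        rwa [mem_normalizer_iff_cj.mp (hDn hzP)] at h1
      have hzDn' : ∀ d ∈ D, z * d * z⁻¹ ∈ D := by
        intro d hd
        have h1 := conj_mem_cj (g := z⁻¹) hd
        rw [mem_normalizer_iff_cj.mp (hDn (P.inv_mem hzP)), inv_inv] at h1
        exact h1
      set s : Finset (G ⧸ H) := Finset.univ.filter (fun c => (∀ d ∈ D, d • c = c) ∧ z • c ≠ c)
        with hs
      have hstr : ∏ c ∈ s, Fw ϕ c u = 1 := by
        apply prod_eq_one_of_strings (p := p) z s
        · intro c hc
          rw [hs, Finset.mem_filter] at hc ⊢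
          refine ⟨Finset.mem_univ _, fun d hd => ?_, fun h => hc.2.2 (smul_left_cancel _ h)⟩
          have e : d * z = z * (z⁻¹ * d * z) := by group
          rw [← mul_smul, e, mul_smul, hc.2.1 _ (hzDn d hd)]
        · intro c hc
          rw [hs, Finset.mem_filter] at hc
          exact hc.2.1 _ hzp
        · intro c hc
          rw [hs, Finset.mem_filter] at hc
          exact hc.2.2
        · intro c hc
          rw [hs, Finset.mem_filter] at hc
          have hFi : ∀ (i : ℕ) (y : G ⧸ H) (w : G),
              Fw ϕ (z ^ i • y) w = Fw ϕ y ((fun w => z⁻¹ * w * z)^[i] w) := by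
            intro i
            induction i with
            | zero => intro y w; simp
            | succ i ih2 =>
              intro y w
              rw [pow_succ', mul_smul, Fw_smul, ih2, Function.iterate_succ_apply]
          rw [← string_prod hA ϕ c P D z u hzP huP (fun w hw => hE w hw z hzQ) hc.2.1 hzDn
            (hzc u huP)]
          exact Finset.prod_congr rfl (fun i _ => hFi i c u)
      have hsplit : ∀ c : G ⧸ H, (if ∀ d ∈ D, d • c = c then Fw ϕ c u else 1) =
          (if ∀ d ∈ D ⊔ Subgroup.zpowers z, d • c = c then Fw ϕ c u else 1) *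
            (if (∀ d ∈ D, d • c = c) ∧ z • c ≠ c then Fw ϕ c u else 1) := by
        intro c
        by_cases h1 : ∀ d ∈ D, d • c = c
        · by_cases h2 : z • c = c
          · rw [if_pos h1, if_pos ((hiff c).mpr ⟨h1, h2⟩), if_neg (fun h => h.2 h2), mul_one]
          · rw [if_pos h1, if_neg (fun h => h2 ((hiff c).mp h).2), if_pos ⟨h1, h2⟩, one_mul]
        · rw [if_neg h1, if_neg (fun h => h1 ((hiff c).mp h).1), if_neg (fun h => h1 h.1), one_mul]
      rw [Finset.prod_congr rfl (fun c _ => hsplit c), Finset.prod_mul_distrib,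
        ← Finset.prod_filter (fun c => (∀ d ∈ D, d • c = c) ∧ z • c ≠ c), ← hs, hstr, mul_one]

/-- the transfer as a product over the fixed cosets -/
theorem transfer_eq_prod_Fw [Fintype (G ⧸ H)] (ϕ : H →* A) (u : G)
    (hvan : ∀ (t : G) (n : ℕ), n ≠ 1 → n ∣ orderOf u → ∀ h : t⁻¹ * u ^ n * t ∈ H,
      ϕ ⟨_, h⟩ = 1) :
    MonoidHom.transfer ϕ u = ∏ c : G ⧸ H, Fw ϕ c u := by
  classical
  have : Fintype (Quotient (MulAction.orbitRel (Subgroup.zpowers u) (G ⧸ H))) := Fintype.ofFinite _
  rw [MonoidHom.transfer_eq_prod_quotient_orbitRel_zpowers_quot,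
    ← Finset.prod_fiberwise Finset.univ
      (fun c : G ⧸ H => (Quotient.mk'' c : Quotient (MulAction.orbitRel (Subgroup.zpowers u) (G ⧸ H))))
      (fun c => Fw ϕ c u)]
  refine Finset.prod_congr rfl (fun q _ => ?_)
  have hq : (Quotient.mk'' q.out : Quotient (MulAction.orbitRel (Subgroup.zpowers u) (G ⧸ H))) = q :=
    Quotient.out_eq' q
  have horb : ∀ c : G ⧸ H,
      (Quotient.mk'' c : Quotient (MulAction.orbitRel (Subgroup.zpowers u) (G ⧸ H))) = q →
        ∃ k : ℤ, c = u ^ k • q.out := by
    intro c hc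
    rw [← hq] at hc
    have h1 : (MulAction.orbitRel (Subgroup.zpowers u) (G ⧸ H)) c q.out := Quotient.eq''.mp hc
    rw [MulAction.orbitRel_apply, MulAction.mem_orbit_iff] at h1
    obtain ⟨⟨g, hg⟩, rfl⟩ := h1
    obtain ⟨k, rfl⟩ := Subgroup.mem_zpowers_iff.mp hg
    exact ⟨k, rfl⟩
  by_cases hn : Function.minimalPeriod (u • ·) q.out = 1
  · have hfix : u • q.out = q.out := Function.minimalPeriod_eq_one_iff_isFixedPt.mp hn
    have hstab : u ∈ MulAction.stabilizer G q.out := MulAction.mem_stabilizer_iff.mpr hfix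
    have hset : Finset.univ.filter (fun c : G ⧸ H =>
        (Quotient.mk'' c : Quotient (MulAction.orbitRel (Subgroup.zpowers u) (G ⧸ H))) = q) =
        {q.out} := by
      ext c
      simp only [Finset.mem_filter, Finset.mem_univ, true_and, Finset.mem_singleton]
      constructor
      · intro hc
        obtain ⟨k, rfl⟩ := horb c hc
        exact MulAction.mem_stabilizer_iff.mp (Subgroup.zpow_mem _ hstab k)
      · rintro rfl
        exact hq
    rw [hset, Finset.prod_singleton]
    unfold Fw
    rw [dif_pos ((out_mem_iff_smul _ _).mpr hfix)]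
    congr 1
    apply Subtype.ext
    simp only [hn, pow_one]
  · have hdvd : Function.minimalPeriod (u • ·) q.out ∣ orderOf u := by
      apply Function.IsPeriodicPt.minimalPeriod_dvd
      show (u • ·)^[orderOf u] q.out = q.out
      rw [smul_iterate, pow_orderOf_eq_one]
      exact one_smul _ _
    rw [hvan _ _ hn hdvd]
    symm
    apply Finset.prod_eq_one
    intro c hc
    rw [Finset.mem_filter] at hc
    obtain ⟨k, rfl⟩ := horb c hc.2
    apply Fw_of_not
    intro h
    apply hn
    rw [Function.minimalPeriod_eq_one_iff_isFixedPt]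
    show u • q.out = q.out
    rw [← mul_smul, ← zpow_one_add, add_comm, zpow_add_one, mul_smul] at h
    exact smul_left_cancel _ h

end Cfsg.Agent.Lib.Helper13.HW
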