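import Cfsg.Agent.Lib.Helper13.HWc
import Cfsg.Prelude.Def_BaumannBlocks

set_option autoImplicit false

namespace Cfsg.Agent.Lib.Helper13.HW

open Cfsg Cfsg.Agent.Lib.Helper17 Cfsg.Agent.Lib.Helper13

variable {G : Type*} [Group G] [Finite G] {p : ℕ} [hp : Fact p.Prime]

theorem weaklyClosed_stab (P : Sylow p G) (Q : Subgroup G)
    (hQ : Cfsg.IsWeaklyClosed Q (P : Subgroup G)) (g : G) (hg : cj Q g ≤ P) :
    g ∈ Subgroup.normalizer (Q : Set G) := by
  rw [mem_normalizer_iff_cj]
  have h := hQ.2 g⁻¹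
  rw [map_conj_eq_cj, inv_inv] at h
  exact h hg

theorem sylow_le_normalizer (P : Sylow p G) (Q : Subgroup G)
    (hQ : Cfsg.IsWeaklyClosed Q (P : Subgroup G)) :
    (P : Subgroup G) ≤ Subgroup.normalizer (Q : Set G) := by
  intro s hs
  apply weaklyClosed_stab P Q hQ
  have := cj_mono hQ.1 s
  rwa [cj_eq_self_of_mem hs] at this

/-- the core of the Hall–Wielandt theorem -/
theorem core (P : Sylow p G) (Q : Subgroup G) (hQ : Cfsg.IsWeaklyClosed Q (P : Subgroup G))
    (hE : ∀ u ∈ (P : Subgroup G), ∀ z ∈ Q, (fun y : G => y⁻¹ * z⁻¹ * y * z)^[p - 1] u = 1)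
    {A : Type*} [CommGroup A] (hA : ∀ a : A, a ^ p = 1)
    (ϕ : (Subgroup.normalizer (Q : Set G)) →* A) :
    ∀ (n : ℕ) (u : G), orderOf u = n → u ∈ (P : Subgroup G) → u ∈ pResidual p G →
      ∀ hu : u ∈ Subgroup.normalizer (Q : Set G), ϕ ⟨u, hu⟩ = 1 := by
  classical
  have hPH := sylow_le_normalizer P Q hQ
  have : Fintype (G ⧸ Subgroup.normalizer (Q : Set G)) := Fintype.ofFinite _
  intro n
  induction n using Nat.strong_induction_on with
  | _ n ih =>
    intro u hn huP huR hu
    have hV : MonoidHom.transfer ϕ u = 1 := by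
      have h1 : pResidual p G ≤ (MonoidHom.transfer ϕ).ker := by
        rw [pResidual_le_iff]
        intro g hg
        rw [MonoidHom.mem_ker]
        have h2 : (MonoidHom.transfer ϕ g) ^ orderOf g = 1 := by
          rw [← map_pow, pow_orderOf_eq_one, map_one]
        have h3 : orderOf (MonoidHom.transfer ϕ g) ∣ Nat.gcd (orderOf g) p :=
          Nat.dvd_gcd (orderOf_dvd_of_pow_eq_one h2) (orderOf_dvd_of_pow_eq_one (hA _))
        rw [hg] at h3
        exact orderOf_eq_one_iff.mp (Nat.dvd_one.mp h3)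
      exact h1 huR
    have hvan : ∀ (t : G) (m : ℕ), m ≠ 1 → m ∣ orderOf u →
        ∀ h : t⁻¹ * u ^ m * t ∈ Subgroup.normalizer (Q : Set G), ϕ ⟨_, h⟩ = 1 := by
      intro t m hm1 hmd h
      have hm0 : m ≠ 0 := by
        rintro rfl
        exact (orderOf_pos u).ne' (Nat.eq_zero_of_zero_dvd hmd)
      set w := t⁻¹ * u ^ m * t with hw
      have hword : orderOf w = orderOf (u ^ m) := by
        have e : w = MulAut.conj t⁻¹ (u ^ m) := by simp [hw]
        rw [e, MulEquiv.orderOf_eq]
      have hlt : orderOf w < n := by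
        rw [hword, orderOf_pow_of_dvd hm0 hmd, ← hn]
        exact Nat.div_lt_self (orderOf_pos u) (by omega)
      have hwp : IsPGroup p (Subgroup.zpowers w) := by
        obtain ⟨k, hk⟩ := (IsPGroup.iff_orderOf.mp P.2) ⟨u, huP⟩
        rw [Subgroup.orderOf_mk] at hk
        have h1 : orderOf w ∣ p ^ k := by
          rw [hword, ← hk]; exact orderOf_pow_dvd m
        obtain ⟨j, -, hj⟩ := (Nat.dvd_prime_pow hp.out).mp h1
        exact IsPGroup.of_card (n := j) (by rw [Nat.card_zpowers, hj])
      obtain ⟨x, hx, hle⟩ := exists_cj_le_of_sylow P.2 (not_dvd_relIndex_of_sylow P hPH)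
        ((Subgroup.zpowers_le).mpr h) hwp
      have hxw : x⁻¹ * w * x ∈ (P : Subgroup G) := hle (conj_mem_cj (Subgroup.mem_zpowers w))
      have hxord : orderOf (x⁻¹ * w * x) = orderOf w := by
        have e : x⁻¹ * w * x = MulAut.conj x⁻¹ w := by simp
        rw [e, MulEquiv.orderOf_eq]
      have hnorm : ∀ (a b : G), a ∈ pResidual p G → b⁻¹ * a * b ∈ pResidual p G := by
        intro a b ha
        have := (inferInstance : (pResidual p G).Normal).conj_mem a ha b⁻¹
        simpa using this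
      have hwR : w ∈ pResidual p G := hnorm _ _ (Subgroup.pow_mem _ huR m)
      have h1 := ih _ hlt (x⁻¹ * w * x) hxord hxw (hnorm _ _ hwR) (hPH hxw)
      have e : (⟨x⁻¹ * w * x, hPH hxw⟩ : Subgroup.normalizer (Q : Set G)) =
          (⟨x, hx⟩ : Subgroup.normalizer (Q : Set G))⁻¹ * ⟨w, h⟩ * ⟨x, hx⟩ := rfl
      rw [e, map_mul, map_mul, map_inv, mul_comm, mul_inv_cancel_left] at h1
      exact h1
    have hfix : ∀ c : G ⧸ Subgroup.normalizer (Q : Set G),
        (∀ g ∈ Q, g • c = c) ↔ c = ((1 : G) : G ⧸ Subgroup.normalizer (Q : Set G)) := by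
      intro c
      obtain ⟨y, rfl⟩ := QuotientGroup.mk_surjective c
      constructor
      · intro h
        have h1 : cj Q y ≤ Subgroup.normalizer (Q : Set G) := by
          intro x hx
          rw [mem_cj] at hx
          have h2 := (conj_mem_iff_smul (H := Subgroup.normalizer (Q : Set G)) y _).mpr (h _ hx)
          convert h2 using 1
          group
        obtain ⟨m, hm, hle⟩ := exists_cj_le_of_sylow P.2 (not_dvd_relIndex_of_sylow P hPH) h1
          (isPGroup_cj (P.2.to_le hQ.1) y)
        rw [cj_cj] at hle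
        have h2 := weaklyClosed_stab P Q hQ _ hle
        have h3 := Subgroup.mul_mem _ h2 (Subgroup.inv_mem _ hm)
        rw [mul_inv_cancel_right] at h3
        show ((y : G) : G ⧸ Subgroup.normalizer (Q : Set G)) = _
        rw [QuotientGroup.eq]
        simpa using h3
      · intro h g hg
        have hy : y ∈ Subgroup.normalizer (Q : Set G) := by
          have h' : ((y : G) : G ⧸ Subgroup.normalizer (Q : Set G)) = ((1 : G) : G ⧸ _) := h
          rw [QuotientGroup.eq] at h'
          simpa using h'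
        apply (conj_mem_iff_smul (H := Subgroup.normalizer (Q : Set G)) y g).mp
        exact Subgroup.mul_mem _ (Subgroup.mul_mem _ (Subgroup.inv_mem _ hy)
          (hPH (hQ.1 hg))) hy
    have h1 := transfer_eq_prod_Fw ϕ u hvan
    have h2 := prod_fixed_eq hA ϕ (P : Subgroup G) Q P.2 hQ.1 hPH hE hfix u huP hu ⊥ bot_le
      (by
        intro x _
        rw [mem_normalizer_iff_cj]
        exact cj_eq_bot_iff.mpr rfl)
    have h3 : ∏ c : G ⧸ Subgroup.normalizer (Q : Set G),
        (if ∀ d ∈ (⊥ : Subgroup G), d • c = c then Fw ϕ c u else 1) =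
        ∏ c : G ⧸ Subgroup.normalizer (Q : Set G), Fw ϕ c u := by
      refine Finset.prod_congr rfl (fun c _ => ?_)
      rw [if_pos]
      intro d hd
      rw [Subgroup.mem_bot.mp hd, one_smul]
    rw [← h2, h3, ← h1, hV]

/-- the Hall–Wielandt theorem -/
theorem hall_wielandt (P : Sylow p G) (Q : Subgroup G)
    (hQ : Cfsg.IsWeaklyClosed Q (P : Subgroup G))
    (hE : ∀ u ∈ (P : Subgroup G), ∀ z ∈ Q, (fun y : G => y⁻¹ * z⁻¹ * y * z)^[p - 1] u = 1) :
    Cfsg.pResidualOf p (Subgroup.normalizer (Q : Set G)) =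
      Cfsg.pResidual p G ⊓ Subgroup.normalizer (Q : Set G) := by
  set H := Subgroup.normalizer (Q : Set G) with hH'
  have hPH : (P : Subgroup G) ≤ H := sylow_le_normalizer P Q hQ
  have hH : ¬ p ∣ H.index := fun hd => P.not_dvd_index (hd.trans (Subgroup.index_dvd_of_le hPH))
  have main : (pResidual p G).subgroupOf H ≤ pResidual p H := by
    apply tate_index_p _ pResidual_le_closure H hH (pResidual_le_subgroupOf H)
    intro Y hYn hYi l hl
    have hQp : IsPGroup p (H ⧸ Y) := IsPGroup.of_card (n := 1) (by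
      rw [pow_one, ← Subgroup.index_eq_card]; exact hYi)
    have hR : pResidual p H ≤ Y := pResidual_le_of_isPGroup_quotient hQp
    have hC : commutator H ≤ Y := by
      have : Fact (Nat.card (H ⧸ Y)).Prime := ⟨by
        rw [← Subgroup.index_eq_card, hYi]; exact hp.out⟩
      have hcyc : IsCyclic (H ⧸ Y) := isCyclic_of_prime_card (p := Nat.card (H ⧸ Y)) rfl
      rw [← Subgroup.Normal.quotient_commutative_iff_commutator_le]
      exact ⟨⟨fun a b => (IsCyclic.commGroup (α := H ⧸ Y)).mul_comm a b⟩⟩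
    let P' : Sylow p H := P.subtype hPH
    have h1 : l ∈ pResidual p H ⊔ (P' : Subgroup H) := by
      rw [pResidual_sup_sylow]; exact Subgroup.mem_top l
    obtain ⟨r, hr, u, hu, rfl⟩ := Subgroup.mem_sup_of_normal_left.mp h1
    refine Y.mul_mem (hR hr) ?_
    have hu1 : u ∈ (pResidual p G).subgroupOf H := by
      have := mul_mem (inv_mem (pResidual_le_subgroupOf H hr)) hl
      simpa using this
    have huP : (u : G) ∈ (P : Subgroup G) := by
      have : u ∈ (P : Subgroup G).subgroupOf H := hu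
      exact Subgroup.mem_subgroupOf.mp this
    -- the homomorphism
    let N : Subgroup (Abelianization H) := Y.map Abelianization.of
    let ϕ : H →* (Abelianization H ⧸ N) := (QuotientGroup.mk' N).comp Abelianization.of
    have hϕ : ∀ m : H, ϕ m = 1 ↔ m ∈ Y := by
      intro m
      have h1 : ϕ m = 1 ↔ Abelianization.of m ∈ N := QuotientGroup.eq_one_iff _
      have h2 : Abelianization.of m ∈ N ↔ m ∈ N.comap Abelianization.of := Iff.rfl
      rw [h1, h2, Subgroup.comap_map_eq, Abelianization.ker_of, sup_eq_left.mpr hC]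
    have hA : ∀ a : Abelianization H ⧸ N, a ^ p = 1 := by
      intro a
      obtain ⟨b, rfl⟩ := QuotientGroup.mk'_surjective N a
      obtain ⟨m, rfl⟩ := QuotientGroup.mk'_surjective (commutator H) b
      have e : (QuotientGroup.mk' N) ((QuotientGroup.mk' (commutator H)) m) = ϕ m := rfl
      rw [e, ← map_pow, hϕ]
      have h3 : (QuotientGroup.mk m : H ⧸ Y) ^ p = 1 := by
        rw [← hYi, Subgroup.index_eq_card]; exact pow_card_eq_one'
      rw [← QuotientGroup.mk_pow] at h3
      exact (QuotientGroup.eq_one_iff _).mp h3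
    have h4 := core P Q hQ hE hA ϕ _ (u : G) rfl huP (Subgroup.mem_subgroupOf.mp hu1) u.2
    exact (hϕ u).mp h4
  unfold Cfsg.pResidualOf
  apply le_antisymm
  · rintro _ ⟨x, hx, rfl⟩
    exact ⟨Subgroup.mem_subgroupOf.mp (pResidual_le_subgroupOf H hx), x.2⟩
  · rintro x ⟨hx1, hx2⟩
    exact ⟨⟨x, hx2⟩, main (Subgroup.mem_subgroupOf.mpr hx1), rfl⟩

end Cfsg.Agent.Lib.Helper13.HW
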