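import Mathlib

set_option autoImplicit false

namespace Cfsg.Agent.Lib.Helper13.KHom

theorem not_dvd_choose {p a k : ℕ} (hp : p.Prime) (hk : p ^ a ∣ k) :
    ¬ p ∣ Nat.choose ((p ^ a - 1) + k) k := by
  haveI : Fact p.Prime := ⟨hp⟩
  have hq : 0 < p ^ a := pow_pos hp.pos a
  have h0 : padicValNat p (Nat.choose ((p ^ a - 1) + k) k) = 0 := by
    rw [padicValNat_choose' (p := p) (n := p ^ a - 1) (k := k) (Nat.lt_succ_self _)]
    rw [Finset.card_eq_zero, Finset.filter_eq_empty_iff]
    intro i _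
    rw [not_le]
    have hpi : 0 < p ^ i := pow_pos hp.pos i
    rcases le_total i a with hia | hia
    · have hd : p ^ i ∣ k := (pow_dvd_pow p hia).trans hk
      rw [Nat.mod_eq_zero_of_dvd hd, zero_add]
      exact Nat.mod_lt _ hpi
    · -- a ≤ i
      have hle : p ^ a ≤ p ^ i := Nat.pow_le_pow_right hp.pos hia
      have h1 : (p ^ a - 1) % p ^ i = p ^ a - 1 := Nat.mod_eq_of_lt (by omega)
      rw [h1]
      have hdi : p ^ a ∣ p ^ i := pow_dvd_pow p hia
      have h2 : p ^ a ∣ k % p ^ i := (Nat.dvd_mod_iff hdi).2 hk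
      have h3 : k % p ^ i < p ^ i := Nat.mod_lt _ hpi
      obtain ⟨u, hu⟩ := h2
      obtain ⟨w, hw⟩ := hdi
      rw [hu, hw] at h3 ⊢
      have h4 : u < w := lt_of_mul_lt_mul_left h3 (Nat.zero_le _)
      have h5 : p ^ a * (u + 1) ≤ p ^ a * w := Nat.mul_le_mul_left _ h4
      rw [mul_add, mul_one] at h5
      omega
  intro hdvd
  have hne : Nat.choose ((p ^ a - 1) + k) k ≠ 0 := (Nat.choose_pos (Nat.le_add_left _ _)).ne'
  have := (padicValNat.eq_zero_iff.1 h0)
  rcases this with h | h | h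
  · exact hp.one_lt.ne' h
  · exact hne h
  · exact h hdvd

/-- The double count. -/
theorem double_count {α : Type*} [DecidableEq α] (O : Finset α → Prop) [DecidablePred O]
    (S : Finset α) (k q c : ℕ) (hk : 1 ≤ k) (hS : S.card = (q - 1) + k) (hq : 1 ≤ q)
    (hc : ∀ Γ : Finset α, Γ.card = k → (Γ.filter (fun x => O (Γ.erase x))).card = c) :
    q ∣ Nat.choose ((q - 1) + k) k * c := by
  classical
  let A : Finset (Σ _ : Finset α, α) :=
    (S.powersetCard k).sigma (fun Γ => Γ.filter (fun x => O (Γ.erase x)))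
  let B : Finset (Σ _ : Finset α, α) :=
    ((S.powersetCard (k - 1)).filter O).sigma (fun Δ => S \ Δ)
  have hA : A.card = Nat.choose ((q - 1) + k) k * c := by
    rw [Finset.card_sigma]
    rw [Finset.sum_congr rfl (fun Γ hΓ => hc Γ (Finset.mem_powersetCard.1 hΓ).2)]
    rw [Finset.sum_const, Finset.card_powersetCard, hS, smul_eq_mul]
  have hB : B.card = ((S.powersetCard (k - 1)).filter O).card * q := by
    rw [Finset.card_sigma]
    have : ∀ Δ ∈ (S.powersetCard (k - 1)).filter O, (S \ Δ).card = q := by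
      intro Δ hΔ
      have h1 := Finset.mem_powersetCard.1 (Finset.mem_filter.1 hΔ).1
      rw [Finset.card_sdiff_of_subset h1.1, hS, h1.2]
      omega
    rw [Finset.sum_congr rfl this, Finset.sum_const, smul_eq_mul]
  have hAB : A.card = B.card := by
    apply Finset.card_bij' (fun w _ => (⟨w.1.erase w.2, w.2⟩ : Σ _ : Finset α, α))
      (fun w _ => (⟨insert w.2 w.1, w.2⟩ : Σ _ : Finset α, α))
    · rintro ⟨Γ, x⟩ hw
      simp only [A, Finset.mem_sigma, Finset.mem_powersetCard, Finset.mem_filter] at hw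
      simp only [B, Finset.mem_sigma, Finset.mem_powersetCard, Finset.mem_filter,
        Finset.mem_sdiff]
      refine ⟨⟨⟨(Finset.erase_subset _ _).trans hw.1.1, ?_⟩, hw.2.2⟩, hw.1.1 hw.2.1, ?_⟩
      · rw [Finset.card_erase_of_mem hw.2.1, hw.1.2]
      · exact Finset.notMem_erase _ _
    · rintro ⟨Δ, x⟩ hw
      simp only [B, Finset.mem_sigma, Finset.mem_powersetCard, Finset.mem_filter,
        Finset.mem_sdiff] at hw
      simp only [A, Finset.mem_sigma, Finset.mem_powersetCard, Finset.mem_filter]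
      refine ⟨⟨Finset.insert_subset hw.2.1 hw.1.1.1, ?_⟩, Finset.mem_insert_self _ _, ?_⟩
      · rw [Finset.card_insert_of_notMem hw.2.2, hw.1.1.2]; omega
      · rw [Finset.erase_insert hw.2.2]; exact hw.1.2
    · rintro ⟨Γ, x⟩ hw
      simp only [A, Finset.mem_sigma, Finset.mem_powersetCard, Finset.mem_filter] at hw
      simp only [Finset.insert_erase hw.2.1]
    · rintro ⟨Δ, x⟩ hw
      simp only [B, Finset.mem_sigma, Finset.mem_powersetCard, Finset.mem_filter,
        Finset.mem_sdiff] at hw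
      simp only [Finset.erase_insert hw.2.2]
  rw [← hA, hAB, hB]
  exact Dvd.intro_left _ rfl

end Cfsg.Agent.Lib.Helper13.KHom
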