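import Cfsg.Agent.Lib.Helper13.KHomA

set_option autoImplicit false

namespace Cfsg.Agent.Lib.Helper13.KHom

open Pointwise

theorem smul_erase {G α : Type*} [Group G] [MulAction G α] [DecidableEq α] (g : G)
    (Γ : Finset α) (x : α) : g • Γ.erase x = (g • Γ).erase (g • x) := by
  ext y
  rw [Finset.mem_erase, ← Finset.inv_smul_mem_iff, ← Finset.inv_smul_mem_iff, Finset.mem_erase]
  constructor
  · rintro ⟨h1, h2⟩
    exact ⟨fun h => h1 (by rw [h, inv_smul_smul]), h2⟩
  · rintro ⟨h1, h2⟩
    exact ⟨fun h => h1 (by rw [← h, smul_inv_smul]), h2⟩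

theorem core {G α : Type*} [Group G] [MulAction G α] [Fintype α] [DecidableEq α] {k : ℕ}
    (hk : 2 ≤ k)
    (hG : ∀ s t : Finset α, s.card = k → t.card = k → ∃ g : G, g • s = t)
    (hq : ∀ q : ℕ, IsPrimePow q → q ∣ k → k + q - 1 ≤ Fintype.card α)
    (s t : Finset α) (hs : s.card = k - 1) (ht : t.card = k - 1) : ∃ g : G, g • s = t := by
  classical
  let O : Finset α → Prop := fun Δ => ∃ g : G, g • s = Δ
  let c : Finset α → ℕ := fun Γ => (Γ.filter (fun x => O (Γ.erase x))).card
  have hkn : k < Fintype.card α := by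
    obtain ⟨p, hp, hpk⟩ := Nat.exists_prime_and_dvd (show k ≠ 1 by omega)
    have h1 := hq p hp.isPrimePow hpk
    have h2 := hp.two_le
    omega
  have hmono : ∀ (g : G) (Γ : Finset α), c Γ ≤ c (g • Γ) := by
    intro g Γ
    apply Finset.card_le_card_of_injOn (fun x => g • x)
    · intro x hx
      have hx' := Finset.mem_filter.1 (Finset.mem_coe.1 hx)
      obtain ⟨hxΓ, g', hg'⟩ := hx'
      apply Finset.mem_coe.2
      apply Finset.mem_filter.2
      refine ⟨Finset.smul_mem_smul_finset hxΓ, g * g', ?_⟩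
      rw [mul_smul, hg', smul_erase]
    · intro x _ y _ h
      exact MulAction.injective g h
  have hconst : ∀ Γ Γ' : Finset α, Γ.card = k → Γ'.card = k → c Γ = c Γ' := by
    intro Γ Γ' h h'
    obtain ⟨g, hg⟩ := hG Γ Γ' h h'
    obtain ⟨g', hg'⟩ := hG Γ' Γ h' h
    apply le_antisymm
    · rw [← hg]; exact hmono g Γ
    · rw [← hg']; exact hmono g' Γ'
  have hex : ∀ u : Finset α, u.card = k - 1 → ∃ x, x ∉ u := by
    intro u hu
    by_contra hcon
    push Not at hcon
    have : u = Finset.univ := Finset.eq_univ_iff_forall.2 hcon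
    rw [this, Finset.card_univ] at hu
    omega
  obtain ⟨x, hx⟩ := hex s hs
  obtain ⟨y, hy⟩ := hex t ht
  have hΓ0 : (insert x s).card = k := by rw [Finset.card_insert_of_notMem hx, hs]; omega
  have hΓ2 : (insert y t).card = k := by rw [Finset.card_insert_of_notMem hy, ht]; omega
  have hc : ∀ Γ : Finset α, Γ.card = k →
      (Γ.filter (fun x => O (Γ.erase x))).card = c (insert x s) := by
    intro Γ hΓ
    exact hconst Γ _ hΓ hΓ0
  have hdvd : k ∣ c (insert x s) := by
    rw [Nat.dvd_iff_prime_pow_dvd_dvd]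
    intro p a hp hpa
    rcases Nat.eq_zero_or_pos a with rfl | ha
    · simp
    have hpp : IsPrimePow (p ^ a) := hp.isPrimePow.pow ha.ne'
    have hn := hq _ hpp hpa
    have hq1 : 1 ≤ p ^ a := pow_pos hp.pos a
    obtain ⟨S, -, hS⟩ := Finset.exists_subset_card_eq (s := (Finset.univ : Finset α))
      (n := (p ^ a - 1) + k) (by rw [Finset.card_univ]; omega)
    have h1 := double_count O S k (p ^ a) (c (insert x s)) (by omega) hS hq1 hc
    have hcop : Nat.Coprime (p ^ a) (Nat.choose ((p ^ a - 1) + k) k) :=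
      Nat.Coprime.pow_left a ((Nat.Prime.coprime_iff_not_dvd hp).2 (not_dvd_choose hp hpa))
    exact hcop.dvd_of_dvd_mul_left h1
  have hpos : 0 < c (insert x s) := by
    apply Finset.card_pos.2
    refine ⟨x, Finset.mem_filter.2 ⟨Finset.mem_insert_self _ _, 1, ?_⟩⟩
    rw [one_smul, Finset.erase_insert hx]
  have hge : k ≤ c (insert x s) := Nat.le_of_dvd hpos hdvd
  have h2 : c (insert y t) = c (insert x s) := hconst _ _ hΓ2 hΓ0
  have hfil : (insert y t).filter (fun z => O ((insert y t).erase z)) = insert y t := by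
    apply Finset.eq_of_subset_of_card_le (Finset.filter_subset _ _)
    rw [hΓ2]
    exact hge.trans h2.symm.le
  have hy' : y ∈ (insert y t).filter (fun z => O ((insert y t).erase z)) := by
    rw [hfil]; exact Finset.mem_insert_self _ _
  have := (Finset.mem_filter.1 hy').2
  rw [Finset.erase_insert hy] at this
  exact this

end Cfsg.Agent.Lib.Helper13.KHom
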