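import Mathlib

set_option autoImplicit false

namespace Cfsg.Agent.Lib.Helper13.Sharp3

theorem core {G α : Type*} [Group G] [MulAction G α] [Fintype α] [DecidableEq α]
    (hs : ∀ (g : G) (x y z : α), x ≠ y → x ≠ z → y ≠ z → g • x = x → g • y = y → g • z = z → g = 1)
    (h2 : ∀ x y x' y' : α, x ≠ y → x' ≠ y' → ∃ g : G, g • x = x' ∧ g • y = y')
    {a b c : α} (hab : a ≠ b) (hca : c ≠ a) (hcb : c ≠ b)
    (t : Fin 3 → G) (ht : Function.Injective t) (ht1 : ∀ i, t i ≠ 1) (ht3 : ∀ i, t i ^ 3 = 1)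
    (hta : ∀ i, t i • a = a) (htb : ∀ i, t i • b = b) : False := by
  classical
  have hch : ∀ v : α × α, ∃ h : G, v.1 ≠ v.2 → h • a = v.1 ∧ h • b = v.2 := by
    intro v
    by_cases hv : v.1 = v.2
    · exact ⟨1, fun h => absurd hv h⟩
    · obtain ⟨g, hg⟩ := h2 a b v.1 v.2 hab hv
      exact ⟨g, fun _ => hg⟩
  choose h hh using hch
  let γ : (α × α) × Fin 3 → G := fun w => h w.1 * t w.2 * (h w.1)⁻¹
  let Φ : (α × α) × Fin 3 → α × α := fun w => (γ w • c, γ w • γ w • c)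
  let P : Finset (α × α) := Finset.univ.filter (fun v => v.1 ≠ v.2 ∧ v.1 ≠ c ∧ v.2 ≠ c)
  have hP : ∀ v, v ∈ P ↔ (v.1 ≠ v.2 ∧ v.1 ≠ c ∧ v.2 ≠ c) := by
    intro v; simp [P]
  have hγ1 : ∀ w, γ w ≠ 1 := by
    intro w hw
    apply ht1 w.2
    have : h w.1 * t w.2 * (h w.1)⁻¹ = 1 := hw
    have h2 : t w.2 = (h w.1)⁻¹ * (h w.1 * t w.2 * (h w.1)⁻¹) * h w.1 := by group
    rw [h2, this]; group
  have hγ3 : ∀ w, γ w ^ 3 = 1 := by
    intro w
    show (h w.1 * t w.2 * (h w.1)⁻¹) ^ 3 = 1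
    rw [conj_pow, ht3]; group
  have hγa : ∀ w, w.1 ∈ P → γ w • w.1.1 = w.1.1 := by
    intro w hw
    have h1 := (hh w.1 ((hP _).1 hw).1).1
    show (h w.1 * t w.2 * (h w.1)⁻¹) • w.1.1 = w.1.1
    rw [mul_smul, mul_smul]
    have : (h w.1)⁻¹ • w.1.1 = a := by rw [inv_smul_eq_iff, h1]
    rw [this, hta, h1]
  have hγb : ∀ w, w.1 ∈ P → γ w • w.1.2 = w.1.2 := by
    intro w hw
    have h1 := (hh w.1 ((hP _).1 hw).1).2
    show (h w.1 * t w.2 * (h w.1)⁻¹) • w.1.2 = w.1.2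
    rw [mul_smul, mul_smul]
    have : (h w.1)⁻¹ • w.1.2 = b := by rw [inv_smul_eq_iff, h1]
    rw [this, htb, h1]
  have hγc : ∀ w, w.1 ∈ P → γ w • c ≠ c := by
    intro w hw hc
    obtain ⟨h12, h1c, h2c⟩ := (hP _).1 hw
    exact hγ1 w (hs _ _ _ _ h12 h1c h2c (hγa w hw) (hγb w hw) hc)
  have hγ3c : ∀ w, γ w • γ w • γ w • c = c := by
    intro w
    rw [← mul_smul, ← mul_smul]
    have : γ w * γ w * γ w = γ w ^ 3 := by rw [pow_succ, pow_two]
    rw [this, hγ3, one_smul]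
  have hγcc : ∀ w, w.1 ∈ P → γ w • γ w • c ≠ c := by
    intro w hw hc
    apply hγc w hw
    have := hγ3c w
    rw [hc] at this
    exact this
  have hΦP : ∀ w, w.1 ∈ P → Φ w ∈ P := by
    intro w hw
    rw [hP]
    refine ⟨?_, hγc w hw, hγcc w hw⟩
    show γ w • c ≠ γ w • γ w • c
    intro he
    exact hγc w hw (smul_left_cancel _ he).symm
  -- equal images force equal γ
  have hinj : ∀ w w', w.1 ∈ P → w'.1 ∈ P → Φ w = Φ w' → γ w = γ w' := by
    intro w w' hw hw' he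
    have e1 : γ w • c = γ w' • c := congrArg Prod.fst he
    have e2 : γ w • γ w • c = γ w' • γ w' • c := congrArg Prod.snd he
    have key : (γ w')⁻¹ * γ w = 1 := by
      apply hs _ c (γ w • c) (γ w • γ w • c) (hγc w hw).symm (hγcc w hw).symm
      · intro he
        exact hγc w hw (smul_left_cancel _ he).symm
      · rw [mul_smul, inv_smul_eq_iff, e1]
      · rw [mul_smul, inv_smul_eq_iff, e2, e1]
      · rw [mul_smul, inv_smul_eq_iff, hγ3c, e2, hγ3c]
    have : γ w = γ w' * ((γ w')⁻¹ * γ w) := by group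
    rw [this, key, mul_one]
  have hv : ∀ w w', w.1 = w'.1 → γ w = γ w' → w = w' := by
    intro w w' h1 h2
    have h3 : h w.1 * t w.2 * (h w.1)⁻¹ = h w'.1 * t w'.2 * (h w'.1)⁻¹ := h2
    rw [← h1] at h3
    have h4 : t w.2 = t w'.2 := by
      have := mul_right_cancel h3
      exact mul_left_cancel this
    exact Prod.ext h1 (ht h4)
  have hcard : (P ×ˢ (Finset.univ : Finset (Fin 3))).card ≤
      2 * ((P ×ˢ (Finset.univ : Finset (Fin 3))).image Φ).card := by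
    apply Finset.card_le_mul_card_image
    intro u _
    by_contra hlt
    rw [not_le, Finset.two_lt_card] at hlt
    obtain ⟨w1, hw1, w2, hw2, w3, hw3, h12, h13, h23⟩ := hlt
    simp only [Finset.mem_filter, Finset.mem_product, Finset.mem_univ, and_true] at hw1 hw2 hw3
    have g12 := hinj w1 w2 hw1.1 hw2.1 (hw1.2.trans hw2.2.symm)
    have g13 := hinj w1 w3 hw1.1 hw3.1 (hw1.2.trans hw3.2.symm)
    have v12 : w1.1 ≠ w2.1 := fun e => h12 (hv _ _ e g12)
    have v13 : w1.1 ≠ w3.1 := fun e => h13 (hv _ _ e g13)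
    have v23 : w2.1 ≠ w3.1 := fun e => h23 (hv _ _ e (g12.symm.trans g13))
    have f1a := hγa w1 hw1.1
    have f1b := hγb w1 hw1.1
    have f2a := hγa w2 hw2.1
    have f2b := hγb w2 hw2.1
    have f3a := hγa w3 hw3.1
    have f3b := hγb w3 hw3.1
    rw [← g12] at f2a f2b
    rw [← g13] at f3a f3b
    have n1 := ((hP _).1 hw1.1).1
    have n2 := ((hP _).1 hw2.1).1
    have n3 := ((hP _).1 hw3.1).1
    have two : ∀ z, γ w1 • z = z → z = w1.1.1 ∨ z = w1.1.2 := by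
      intro z hz
      by_contra hcon
      push_neg at hcon
      exact hγ1 w1 (hs _ _ _ _ n1 hcon.1.symm hcon.2.symm f1a f1b hz)
    have sw : ∀ v : α × α, v.1 ≠ v.2 → γ w1 • v.1 = v.1 → γ w1 • v.2 = v.2 → w1.1 ≠ v →
        v = (w1.1.2, w1.1.1) := by
      intro v hv1 hv2 hv3 hv4
      rcases two _ hv2 with e1 | e1 <;> rcases two _ hv3 with e2 | e2
      · exact absurd (e1.trans e2.symm) hv1
      · exact absurd (Prod.ext e1.symm e2.symm) hv4
      · exact Prod.ext e1 e2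
      · exact absurd (e1.trans e2.symm) hv1
    exact v23 ((sw _ n2 f2a f2b v12).trans (sw _ n3 f3a f3b v13).symm)
  have himg : ((P ×ˢ (Finset.univ : Finset (Fin 3))).image Φ).card ≤ P.card := by
    apply Finset.card_le_card
    intro u hu
    rw [Finset.mem_image] at hu
    obtain ⟨w, hw, rfl⟩ := hu
    exact hΦP w (Finset.mem_product.1 hw).1
  have hprod : (P ×ˢ (Finset.univ : Finset (Fin 3))).card = P.card * 3 := by
    rw [Finset.card_product]; simp
  have hpos : 0 < P.card := Finset.card_pos.2 ⟨(a, b), (hP _).2 ⟨hab, hca.symm, hcb.symm⟩⟩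
  omega

end Cfsg.Agent.Lib.Helper13.Sharp3
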