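import Cfsg.Agent.Lib.Helper13.WCTrace

set_option autoImplicit false

open scoped commutatorElement IsMulCommutative

namespace Cfsg.Agent.Lib.Helper13

open scoped Classical in
/-- products over a `D`-set: only the fixed point contributes (orbit version) -/
theorem prod_eq_of_unique_fixed' {X Ω A : Type*} [Group X] [MulAction X Ω] [Fintype Ω]
    [CommGroup A] {p : ℕ} [hp : Fact p.Prime] (f : Ω → A) (D : Subgroup X) [Finite D]
    (hD : IsPGroup p D)
    (hN : ∀ D₁ : Subgroup X, D₁ ≤ D → (D₁.subgroupOf D).Normal → (D₁.subgroupOf D).index = p →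
      ∃ d ∈ D, d ∉ D₁ ∧ ∀ x : Ω, ∏ i ∈ Finset.range p,
        ∏ y ∈ Finset.univ.filter (fun a => ∃ g ∈ D₁, g • x = a), f (d ^ i • y) = 1) (q₀ : Ω)
    (hfix : ∀ q, (∀ g ∈ D, g • q = q) ↔ q = q₀) : ∏ q, f q = f q₀ := by
  rw [← Finset.mul_prod_erase Finset.univ _ (Finset.mem_univ q₀)]
  refine mul_eq_left.mpr ?_
  apply Finset.prod_cancels_of_partition_cancels (MulAction.orbitRel D Ω)
  intro x hx
  have hx0 : x ≠ q₀ := Finset.ne_of_mem_erase hx
  -- the stabilizer
  have hlt : D ⊓ MulAction.stabilizer X x < D := by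
    refine lt_of_le_of_ne inf_le_left (fun h => hx0 ((hfix x).mp (fun g hg => ?_)))
    rw [← h] at hg
    exact (Subgroup.mem_inf.mp hg).2
  obtain ⟨D₁, hSt, hD₁D, hn, hi⟩ := exists_normal_index_p_above hD hlt
  obtain ⟨d, hdD, hd1, hprod⟩ := hN D₁ hD₁D hn hi
  obtain ⟨C1, C2⟩ := coset_facts hn hi hdD hd1
  have hset : (Finset.univ.erase q₀).filter (fun a => (MulAction.orbitRel D Ω) a x) =
      Finset.univ.filter (fun a => ∃ g ∈ D, g • x = a) := by
    ext a
    simp only [Finset.mem_filter, Finset.mem_erase, Finset.mem_univ, and_true, true_and,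
      MulAction.orbitRel_apply, MulAction.mem_orbit_iff]
    constructor
    · rintro ⟨-, g, hg⟩
      exact ⟨g, g.2, hg⟩
    · rintro ⟨g, hg, rfl⟩
      refine ⟨fun h => hx0 ?_, ⟨⟨g, hg⟩, rfl⟩⟩
      have h1 := (hfix q₀).mpr rfl g⁻¹ (inv_mem hg)
      rw [← h, inv_smul_smul] at h1
      rw [h1, h]
  have hset' : (Finset.univ.erase q₀).filter (fun a => (MulAction.orbitRel D Ω).r a x) =
      Finset.univ.filter (fun a => ∃ g ∈ D, g • x = a) := hset
  have hbij : ∏ w ∈ Finset.range p ×ˢ Finset.univ.filter (fun a => ∃ g ∈ D₁, g • x = a),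
      f (d ^ w.1 • w.2) = ∏ a ∈ Finset.univ.filter (fun a => ∃ g ∈ D, g • x = a), f a := by
    refine Finset.prod_nbij (fun w => d ^ w.1 • w.2) ?_ ?_ ?_ (fun _ _ => rfl)
    · rintro ⟨i, y⟩ hw
      simp only [Finset.mem_product, Finset.mem_range, Finset.mem_filter, Finset.mem_univ,
        true_and] at hw ⊢
      obtain ⟨-, g, hg, rfl⟩ := hw
      exact ⟨d ^ i * g, mul_mem (pow_mem hdD i) (hD₁D hg), mul_smul _ _ _⟩
    · rintro ⟨i, y⟩ hw ⟨j, y'⟩ hw' h
      simp only [Finset.coe_product, Finset.coe_range, Finset.coe_filter, Finset.mem_univ, true_and,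
        Set.mem_prod, Set.mem_Iio, Set.mem_setOf_eq] at hw hw'
      obtain ⟨hi', a, ha, rfl⟩ := hw
      obtain ⟨hj', b, hb, rfl⟩ := hw'
      have h' : d ^ i • a • x = d ^ j • b • x := h
      have h1 : b⁻¹ * ((d ^ j)⁻¹ * d ^ i) * a ∈ D ⊓ MulAction.stabilizer X x := by
        refine Subgroup.mem_inf.mpr ⟨?_, ?_⟩
        · exact mul_mem (mul_mem (inv_mem (hD₁D hb)) (mul_mem (inv_mem (pow_mem hdD j))
            (pow_mem hdD i))) (hD₁D ha)
        · rw [MulAction.mem_stabilizer_iff, mul_smul, mul_smul, mul_smul, h', inv_smul_smul,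
            inv_smul_smul]
      have h2 := hSt h1
      have h3 : (d ^ j)⁻¹ * d ^ i ∈ D₁ := by
        have := mul_mem (mul_mem hb h2) (inv_mem ha)
        convert this using 1
        group
      have hij := C2 i hi' j hj' h3
      subst hij
      have h4 : a • x = b • x := by
        have := congrArg (fun w => (d ^ i)⁻¹ • w) h'
        simpa using this
      rw [h4]
    · intro a ha
      simp only [Finset.coe_filter, Finset.mem_univ, true_and, Set.mem_setOf_eq] at ha
      obtain ⟨g, hg, rfl⟩ := ha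
      obtain ⟨i, hi', a, ha, rfl⟩ := C1 g hg
      refine ⟨(i, a • x), ?_, (mul_smul _ _ _).symm⟩
      simp only [Finset.coe_product, Finset.coe_range, Finset.coe_filter, Finset.mem_univ, true_and,
        Set.mem_prod, Set.mem_Iio, Set.mem_setOf_eq]
      exact ⟨hi', a, ha, rfl⟩
  rw [hset, ← hbij, Finset.prod_product]
  exact hprod x

theorem exists_central_mul_sq {X : Type*} [Group X] [Finite X]
    (U M D : Subgroup X) (hUn : U.Normal)
    (hUab : ∀ a ∈ U, ∀ b ∈ U, a * b = b * a) (hDM : D ≤ M) (hD : IsPGroup 2 D)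
    (𝒜 : Set (Subgroup X)) (h𝒜 : ∀ A ∈ 𝒜, A ≤ D) (hgen : D ≤ sSup 𝒜)
    (hfix : ∀ y : X, cj D y ≤ M → y ∈ M)
    (hP : ∀ A ∈ 𝒜, ∀ u ∈ U, ∀ d ∈ A,
      (∀ a ∈ A, a * u = u * a ∨ (d⁻¹ * a) * u = u * (d⁻¹ * a)) → d * u = u * d)
    (x : X) (hx : x ∈ U) (hxM : x ∈ Subgroup.centralizer (M : Set X)) :
    ∃ σ ∈ Subgroup.center X, ∃ w ∈ U, σ⁻¹ * x = w * w := by
  classical
  haveI : Fact (Nat.Prime 2) := ⟨Nat.prime_two⟩
  have : IsMulCommutative ↥U := ⟨⟨fun a b => Subtype.ext (hUab a a.2 b b.2)⟩⟩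
  let cn : X →* MulAut ↥U := MulAut.conjNormal
  have hcn : ∀ (k : X) (u : ↥U), ((cn k u : ↥U) : X) = k * u * k⁻¹ := fun k u =>
    MulAut.conjNormal_apply k u
  let S2 : Subgroup ↥U := (powMonoidHom 2 : ↥U →* ↥U).range
  let π : ↥U →* (↥U ⧸ S2) := QuotientGroup.mk' S2
  have hπ : ∀ u : ↥U, π u = 1 ↔ u ∈ S2 := fun u => by
    rw [QuotientGroup.mk'_apply, QuotientGroup.eq_one_iff]
  let x' : ↥U := ⟨x, hx⟩
  have hxm : ∀ m ∈ M, cn m x' = x' := by
    intro m hm
    apply Subtype.ext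
    rw [hcn]
    have := (Subgroup.mem_centralizer_iff.mp hxM) m hm
    show m * x * m⁻¹ = x
    rw [this]; group
  let xq : X ⧸ M → ↥U := fun q => cn q.out x'
  have hxq : ∀ t : X, xq (t : X ⧸ M) = cn t x' := by
    intro t
    obtain ⟨h, hh⟩ := QuotientGroup.mk_out_eq_mul M t
    show cn (t : X ⧸ M).out x' = _
    rw [hh, map_mul, MulAut.mul_apply, hxm _ h.2]
  have hxq2 : ∀ (g : X) (q : X ⧸ M), xq (g • q) = cn g (xq q) := by
    intro g q
    have h1 : g • q = ((g * q.out : X) : X ⧸ M) := by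
      conv_lhs => rw [← Quotient.out_eq' q]
      rfl
    rw [h1, hxq, map_mul, MulAut.mul_apply]
  have : Fintype (X ⧸ M) := Fintype.ofFinite _
  let σ : ↥U := ∏ q, xq q
  have hσ : ∀ g : X, cn g σ = σ := by
    intro g
    show cn g (∏ q, xq q) = ∏ q, xq q
    rw [map_prod]
    simp only [← hxq2]
    exact Equiv.prod_comp (MulAction.toPerm g) xq
  have hfix' : ∀ q : X ⧸ M, (∀ g ∈ D, g • q = q) ↔ q = ((1 : X) : X ⧸ M) := by
    intro q
    obtain ⟨y, rfl⟩ := QuotientGroup.mk_surjective q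
    constructor
    · intro h
      have h1 : y ∈ M := by
        apply hfix
        intro x hx
        rw [mem_cj] at hx
        have h2 : ((y * x * y⁻¹ * y : X) : X ⧸ M) = (y : X ⧸ M) := h _ hx
        rw [QuotientGroup.eq] at h2
        have h3 := M.inv_mem h2
        convert h3 using 1
        group
      rw [QuotientGroup.eq]
      simpa using h1
    · intro h g hg
      show ((g * y : X) : X ⧸ M) = (y : X ⧸ M)
      rw [QuotientGroup.eq] at h ⊢
      have hy : y ∈ M := by simpa using h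
      have := M.mul_mem (M.mul_mem (M.inv_mem hy) (M.inv_mem (hDM hg))) hy
      convert this using 1
      group
  have : Finite D := inferInstance
  have hprod := prod_eq_of_unique_fixed' (p := 2) (fun q => π (xq q)) D hD (by
    intro D₁ hD₁D hn hi
    obtain ⟨A, hA, hAD₁⟩ : ∃ A ∈ 𝒜, ¬ A ≤ D₁ := by
      by_contra hcon
      push Not at hcon
      have h1 : D ≤ D₁ := hgen.trans (sSup_le hcon)
      have h2 : D₁.subgroupOf D = ⊤ := Subgroup.subgroupOf_eq_top.mpr h1
      rw [h2, Subgroup.index_top] at hi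
      exact absurd hi (by norm_num)
    obtain ⟨d, hdA, hd1⟩ := SetLike.not_le_iff_exists.mp hAD₁
    refine ⟨d, h𝒜 A hA hdA, hd1, fun x₀ => ?_⟩
    obtain ⟨C1, -⟩ := coset_facts hn hi (h𝒜 A hA hdA) hd1
    set Fil := Finset.univ.filter (fun a : X ⧸ M => ∃ g ∈ D₁, g • x₀ = a) with hFil
    set u : ↥U := ∏ y ∈ Fil, xq y with hu
    have hD₁u : ∀ g ∈ D₁, cn g u = u := by
      intro g hg
      rw [hu, map_prod]
      simp only [← hxq2]
      refine Finset.prod_nbij (fun y => g • y) ?_ ?_ ?_ (fun _ _ => rfl)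
      · intro y hy
        simp only [hFil, Finset.mem_filter, Finset.mem_univ, true_and] at hy ⊢
        obtain ⟨g', hg', rfl⟩ := hy
        exact ⟨g * g', D₁.mul_mem hg hg', mul_smul _ _ _⟩
      · intro y _ y' _ h
        exact MulAction.injective g h
      · intro y hy
        simp only [hFil, Finset.coe_filter, Finset.mem_univ, true_and, Set.mem_setOf_eq] at hy
        obtain ⟨g', hg', rfl⟩ := hy
        refine ⟨(g⁻¹ * g') • x₀, ?_, ?_⟩
        · simp only [hFil, Finset.coe_filter, Finset.mem_univ, true_and, Set.mem_setOf_eq]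
          exact ⟨g⁻¹ * g', D₁.mul_mem (D₁.inv_mem hg) hg', rfl⟩
        · show g • (g⁻¹ * g') • x₀ = g' • x₀
          rw [← mul_smul, mul_inv_cancel_left]
    have hcomm : ∀ g : X, cn g u = u → g * (u : X) = u * g := by
      intro g h
      have h1 := congrArg Subtype.val h
      rw [hcn] at h1
      calc g * (u : X) = (g * u * g⁻¹) * g := by group
        _ = u * g := by rw [h1]
    have hdu : d * (u : X) = u * d := by
      apply hP A hA u u.2 d hdA
      intro a ha
      obtain ⟨i, hi2, a', ha', rfl⟩ := C1 a (h𝒜 A hA ha)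
      interval_cases i
      · left
        rw [pow_zero, one_mul]
        exact hcomm a' (hD₁u a' ha')
      · right
        rw [pow_one, inv_mul_cancel_left]
        exact hcomm a' (hD₁u a' ha')
    have hdu' : cn d u = u := by
      apply Subtype.ext
      rw [hcn, hdu]; group
    rw [Finset.prod_range_succ, Finset.prod_range_one]
    simp only [pow_zero, one_smul, pow_one, hxq2]
    rw [← map_prod, ← map_prod, ← map_prod, ← hu, hdu', ← map_mul, hπ]
    exact ⟨u, by simp [powMonoidHom, pow_two]⟩) _ hfix'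
  have h1 : π σ = π x' := by
    have e1 : ∏ q, π (xq q) = π σ := by
      show ∏ q, π (xq q) = π (∏ q, xq q)
      rw [map_prod]
    have e2 : π (xq ((1 : X) : X ⧸ M)) = π x' := by
      rw [hxq]
      simp
    rw [← e1, hprod, e2]
  have h2 : π (σ⁻¹ * x') = 1 := by rw [map_mul, map_inv, h1, inv_mul_cancel]
  obtain ⟨w, hw⟩ := (hπ _).mp h2
  refine ⟨σ, ?_, w, w.2, ?_⟩
  · rw [Subgroup.mem_center_iff]
    intro g
    have := congrArg Subtype.val (hσ g)
    rw [hcn] at this
    calc g * (σ : X) = (g * σ * g⁻¹) * g := by group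
      _ = σ * g := by rw [this]
  · have h3 := congrArg Subtype.val hw
    simp only [powMonoidHom_apply, pow_two] at h3
    exact h3.symm

/-- elements of an abelian subgroup killed by `N` -/
def killedBy {X : Type*} [Group X] (Z : Subgroup X) (hZab : ∀ a ∈ Z, ∀ b ∈ Z, a * b = b * a)
    (N : ℕ) : Subgroup X where
  carrier := {v | v ∈ Z ∧ v ^ N = 1}
  one_mem' := ⟨Z.one_mem, one_pow _⟩
  mul_mem' := by
    rintro a b ⟨ha, ha'⟩ ⟨hb, hb'⟩
    refine ⟨Z.mul_mem ha hb, ?_⟩
    rw [(show Commute a b from hZab a ha b hb).mul_pow, ha', hb', one_mul]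
  inv_mem' := by
    rintro a ⟨ha, ha'⟩
    exact ⟨Z.inv_mem ha, by rw [inv_pow, ha', inv_one]⟩

theorem central_of_trace_sq {X : Type*} [Group X] [Finite X]
    (Zr M D : Subgroup X) (hZn : Zr.Normal) (hZ2 : IsPGroup 2 Zr)
    (hZab : ∀ a ∈ Zr, ∀ b ∈ Zr, a * b = b * a) (hDM : D ≤ M) (hD : IsPGroup 2 D)
    (𝒜 : Set (Subgroup X)) (h𝒜 : ∀ A ∈ 𝒜, A ≤ D) (hgen : D ≤ sSup 𝒜)
    (hfix : ∀ y : X, cj D y ≤ M → y ∈ M)
    (hP : ∀ A ∈ 𝒜, ∀ u ∈ Zr, ∀ d ∈ A,
      (∀ a ∈ A, a * u = u * a ∨ (d⁻¹ * a) * u = u * (d⁻¹ * a)) → d * u = u * d) :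
    ∀ x ∈ Zr, x ∈ Subgroup.centralizer (M : Set X) → x ∈ Subgroup.center X := by
  have main : ∀ n : ℕ, ∀ x ∈ Zr, x ∈ Subgroup.centralizer (M : Set X) → x ^ 2 ^ n = 1 →
      x ∈ Subgroup.center X := by
    intro n
    induction n with
    | zero =>
      intro x _ _ h
      rw [pow_zero, pow_one] at h
      rw [h]; exact Subgroup.one_mem _
    | succ n ih =>
      intro x hx hxM hxn
      have hUn : (killedBy Zr hZab (2 ^ (n + 1))).Normal := by
        constructor
        rintro v ⟨hv, hv'⟩ g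
        exact ⟨hZn.conj_mem v hv g, by rw [conj_pow, hv']; group⟩
      obtain ⟨σ, hσ, w, hw, hσw⟩ := exists_central_mul_sq (killedBy Zr hZab (2 ^ (n + 1))) M D hUn
        (fun a ha b hb => hZab a ha.1 b hb.1) hDM hD 𝒜 h𝒜 hgen hfix
        (fun A hA u hu => hP A hA u hu.1) x ⟨hx, hxn⟩ hxM
      have h1 : σ⁻¹ * x ∈ Subgroup.center X := by
        apply ih
        · rw [hσw]; exact Zr.mul_mem hw.1 hw.1
        · exact Subgroup.mul_mem _ (Subgroup.inv_mem _ (Subgroup.center_le_centralizer _ hσ)) hxM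
        · rw [hσw, ← pow_two, ← pow_mul, ← pow_succ']
          exact hw.2
      have := Subgroup.mul_mem _ hσ h1
      rwa [mul_inv_cancel_left] at this
  intro x hx hxM
  obtain ⟨n, hn⟩ := hZ2 ⟨x, hx⟩
  exact main n x hx hxM (congrArg Subtype.val hn)

end Cfsg.Agent.Lib.Helper13
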